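import Mathlib
import Cfsg.Agent.Lib.Helper48.ReflGen
import Cfsg.Agent.Lib.Helper48.JordanForm
import Cfsg.Agent.Lib.Helper95.Glue4

/-! Ladder NSP (S5985, S5986): prime order elements of `Ω^±(q)`, `q` even, and nonsingular points. -/

set_option autoImplicit false

namespace Cfsg.Agent.Lib.Helper97.NSP

open QuadraticMap Module
open Cfsg.Agent.Lib.Helper49

variable {F V : Type*} [Field F] [AddCommGroup V] [Module F V] (Q : QuadraticForm F V)

/-- every element of `Ω` of order `r` modulo scalars fixes a nonsingular point -/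
def Elus (r : ℕ) : Prop :=
  ∀ g : OG Q, g ∈ commutator (OG Q) → (∃ z : F, ∀ v, (g ^ r).1 v = z • v) →
    (∀ z : F, ∃ v, g.1 v ≠ z • v) → ∃ v, Q v ≠ 0 ∧ ∃ c : F, g.1 v = c • v

end Cfsg.Agent.Lib.Helper97.NSP
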