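import Cfsg.Agent.Lib.Helper97.NSP.Defs
import Cfsg.Agent.Lib.Helper95.OmGlue

set_option autoImplicit false

namespace Cfsg.Agent.Lib.Helper97.NSP

open QuadraticMap Module
open Cfsg.Agent.Lib.Helper49 hiding glEquiv glEquiv_apply
open Cfsg.Agent.Lib.Helper95 (glEquiv glEquiv_apply mem_omegaGL_iff omG)

theorem mat_eq_smul_one_iff {ι : Type} [Fintype ι] [DecidableEq ι] {F : Type*} [Field F]
    (A : Matrix ι ι F) (z : F) : A = z • (1 : Matrix ι ι F) ↔ ∀ v, A.mulVec v = z • v := by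
  constructor
  · rintro rfl v
    rw [Matrix.smul_mulVec, Matrix.one_mulVec]
  · intro h
    apply Matrix.toLin'.injective
    apply LinearMap.ext
    intro v
    rw [Matrix.toLin'_apply, Matrix.toLin'_apply, h v, Matrix.smul_mulVec, Matrix.one_mulVec]

theorem glue {ι : Type} [Fintype ι] [DecidableEq ι] {F : Type*} [Field F]
    (Q : QuadraticForm F (ι → F)) (r : ℕ) :
    (∀ x : GL ι F, x ∈ Cfsg.Geo.omegaGL ⇑Q →
      (∃ z : F, ((x ^ r : GL ι F) : Matrix ι ι F) = z • (1 : Matrix ι ι F)) →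
      (∀ z : F, (x : Matrix ι ι F) ≠ z • (1 : Matrix ι ι F)) →
      ∃ W : Submodule F (ι → F), (Module.finrank F ↥W = 1 ∧ ∃ v ∈ W, Q v ≠ 0) ∧
        W.map (Matrix.toLin' (x : Matrix ι ι F)) ≤ W) ↔ Elus Q r := by
  have hpow : ∀ (g : OG Q) (x : GL ι F), glEquiv x = g.1 → ∀ v,
      ((x ^ r : GL ι F) : Matrix ι ι F).mulVec v = (g ^ r).1 v := by
    intro g x hx v
    rw [← glEquiv_apply, map_pow, hx]
    rfl
  have hone : ∀ (g : OG Q) (x : GL ι F), glEquiv x = g.1 → ∀ v,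
      (x : Matrix ι ι F).mulVec v = g.1 v := by
    intro g x hx v
    rw [← glEquiv_apply, hx]
  have core : ∀ (g : OG Q) (x : GL ι F), glEquiv x = g.1 →
      ((∃ W : Submodule F (ι → F), (Module.finrank F ↥W = 1 ∧ ∃ v ∈ W, Q v ≠ 0) ∧
        W.map (Matrix.toLin' (x : Matrix ι ι F)) ≤ W) ↔ ∃ v, Q v ≠ 0 ∧ ∃ c : F, g.1 v = c • v) := by
    intro g x hx
    constructor
    · rintro ⟨W, ⟨hW, v, hv, hQv⟩, hmap⟩
      refine ⟨v, hQv, ?_⟩
      have hv0 : (⟨v, hv⟩ : W) ≠ 0 := by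
        intro h0
        have : v = 0 := congrArg Subtype.val h0
        rw [this] at hQv
        simp at hQv
      have hgv : g.1 v ∈ W := by
        apply hmap
        exact ⟨v, hv, by rw [Matrix.toLin'_apply, hone g x hx]⟩
      obtain ⟨c, hc⟩ := (finrank_eq_one_iff_of_nonzero' (⟨v, hv⟩ : W) hv0).1 hW ⟨g.1 v, hgv⟩
      exact ⟨c, (congrArg Subtype.val hc).symm⟩
    · rintro ⟨v, hQv, c, hc⟩
      have hv0 : v ≠ 0 := by rintro rfl; simp at hQv
      refine ⟨Submodule.span F {v}, ⟨finrank_span_singleton hv0, v,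
        Submodule.mem_span_singleton_self v, hQv⟩, ?_⟩
      rintro _ ⟨w, hw, rfl⟩
      obtain ⟨a, rfl⟩ := Submodule.mem_span_singleton.1 hw
      rw [Matrix.toLin'_apply, hone g x hx, map_smul, hc]
      exact Submodule.smul_mem _ _ (Submodule.smul_mem _ _ (Submodule.mem_span_singleton_self v))
  constructor
  · intro H g hg hz hns
    have hx : glEquiv (glEquiv.symm g.1 : GL ι F) = g.1 := MulEquiv.apply_symm_apply _ _
    rw [← core g _ hx]
    apply H
    · rw [mem_omegaGL_iff, hx]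
      exact ⟨g, hg, rfl⟩
    · obtain ⟨z, hz⟩ := hz
      refine ⟨z, (mat_eq_smul_one_iff _ z).2 fun v => ?_⟩
      rw [hpow g _ hx, hz]
    · intro z hzz
      obtain ⟨v, hv⟩ := hns z
      apply hv
      rw [← hone g _ hx]
      exact (mat_eq_smul_one_iff _ z).1 hzz v
  · intro H x hxm hz hns
    obtain ⟨g, hg, hgx⟩ := (mem_omegaGL_iff Q x).1 hxm
    have hx : glEquiv x = g.1 := hgx.symm
    rw [core g x hx]
    apply H g hg
    · obtain ⟨z, hz⟩ := hz
      refine ⟨z, fun v => ?_⟩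
      rw [← hpow g x hx]
      exact (mat_eq_smul_one_iff _ z).1 hz v
    · intro z
      by_contra hcon
      push Not at hcon
      apply hns z
      rw [mat_eq_smul_one_iff]
      intro v
      rw [hone g x hx, hcon v]

end Cfsg.Agent.Lib.Helper97.NSP
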