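import Cfsg.Agent.Lib.Helper97.NSP.R12

set_option autoImplicit false

namespace Cfsg.Agent.Lib.Helper97.NSP

open QuadraticMap Module
open Cfsg.Agent.Lib.Helper49 Cfsg.Agent.Lib.Helper48

variable {F V : Type*} [Field F] [AddCommGroup V] [Module F V] {Q : QuadraticForm F V}

theorem invol_lagr [FiniteDimensional F V] (h2 : (2 : F) = 0) (hQ : (polarBilin Q).Nondegenerate)
    (g : OG Q) (hg : ∀ v, g.1 (g.1 v) = v) (hs : ∀ v, g.1 v = v → Q v = 0) :
    IsLagr Q (LinearMap.ker (dOG Q g)) ∧ LinearMap.ker (dOG Q g) = LinearMap.range (dOG Q g) := by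
  have hts : ∀ u ∈ LinearMap.ker (dOG Q g), Q u = 0 := fun u hu => hs u (mem_ker_dOG Q |>.1 hu)
  have hMK : LinearMap.range (dOG Q g) ≤ LinearMap.ker (dOG Q g) := by
    rintro _ ⟨w, rfl⟩
    rw [mem_ker_dOG, dOG_apply, map_sub, hg]
    have : (2 : F) • (g.1 w - w) = 0 := by rw [h2, zero_smul]
    linear_combination (norm := module) -this
  have hKo : LinearMap.ker (dOG Q g) ≤
      LinearMap.BilinForm.orthogonal (polarBilin Q) (LinearMap.ker (dOG Q g)) := by
    intro x hx u hu
    exact polar_eq_zero_of_singular hts hu hx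
  have d1 := LinearMap.finrank_range_add_finrank_ker (dOG Q g)
  have d2 := LinearMap.BilinForm.finrank_orthogonal hQ (LinearMap.ker (dOG Q g))
  have d3 := Submodule.finrank_mono hKo
  have d4 := Submodule.finrank_mono hMK
  have d5 := Submodule.finrank_le (LinearMap.ker (dOG Q g))
  refine ⟨isLagr_of_finrank hQ hts (by omega), ?_⟩
  exact (Submodule.eq_of_le_of_finrank_le hMK (by omega)).symm

end Cfsg.Agent.Lib.Helper97.NSP
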