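import Cfsg.Agent.Lib.Helper97.NSP.Defs

set_option autoImplicit false

namespace Cfsg.Agent.Lib.Helper97.NSP

open QuadraticMap Module
open Cfsg.Agent.Lib.Helper49 Cfsg.Agent.Lib.Helper48

theorem minus_nondeg {F : Type*} [Field F] [Fintype F] (h2 : (2 : F) = 0) (m : ℕ) (a b : F)
    (hab : ∀ x y : F, x ^ 2 + a * x * y + b * y ^ 2 = 0 → x = 0 ∧ y = 0) :
    (polarBilin (minusQF m F a b)).Nondegenerate := by
  apply minusQF_nondegenerate
  have ha : a ≠ 0 := by
    rintro rfl
    obtain ⟨s, hs⟩ := isSquare_of_two_eq_zero h2 b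
    have := hab s 1 (by rw [hs]; linear_combination s ^ 2 * h2)
    exact one_ne_zero this.2
  intro h
  apply ha
  have : a ^ 2 = 0 := by linear_combination -h + 2 * b * h2
  exact pow_eq_zero_iff (two_ne_zero) |>.1 this

end Cfsg.Agent.Lib.Helper97.NSP
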