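import Cfsg.Agent.Lib.Helper97.NSP.T3

set_option autoImplicit false

namespace Cfsg.Agent.Lib.Helper97.NSP

open QuadraticMap Module
open Cfsg.Agent.Lib.Helper49 Cfsg.Agent.Lib.Helper48

variable {F V : Type*} [Field F] [AddCommGroup V] [Module F V] {Q : QuadraticForm F V}

theorem card_points [Fintype F] [FiniteDimensional F V] (h2 : (2 : F) = 0) :
    Nat.card {W : Submodule F V // finrank F W = 1 ∧ ∃ v ∈ W, Q v ≠ 0} =
      Nat.card {v : V // Q v = 1} := by
  have hne : ∀ v : V, Q v = 1 → v ≠ 0 := by
    rintro v hv rfl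
    simp at hv
  let f : {v : V // Q v = 1} → {W : Submodule F V // finrank F W = 1 ∧ ∃ v ∈ W, Q v ≠ 0} :=
    fun v => ⟨Submodule.span F {v.1}, finrank_span_singleton (hne v.1 v.2),
      v.1, Submodule.mem_span_singleton_self _, by rw [v.2]; exact one_ne_zero⟩
  have hf : Function.Bijective f := by
    constructor
    · rintro ⟨v, hv⟩ ⟨v', hv'⟩ h
      have h1 : Submodule.span F {v} = Submodule.span F {v'} := congrArg Subtype.val h
      have h3 : v' ∈ Submodule.span F {v} := by
        rw [h1]; exact Submodule.mem_span_singleton_self _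
      obtain ⟨c, rfl⟩ := Submodule.mem_span_singleton.1 h3
      rw [QuadraticMap.map_smul, hv, smul_eq_mul, mul_one] at hv'
      have hc : c = 1 := eq_one_of_sq h2 (by rw [pow_two]; exact hv')
      apply Subtype.ext
      simp [hc]
    · rintro ⟨W, hW, w, hw, hQw⟩
      obtain ⟨s, -, hs⟩ := exists_smul_norm_one h2 hQw
      refine ⟨⟨s • w, hs⟩, Subtype.ext ?_⟩
      apply Submodule.eq_of_le_of_finrank_eq
      · rw [Submodule.span_singleton_le_iff_mem]
        exact W.smul_mem _ hw
      · rw [hW]
        exact finrank_span_singleton (hne _ hs)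
  exact (Nat.card_congr (Equiv.ofBijective f hf)).symm

end Cfsg.Agent.Lib.Helper97.NSP
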