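import Cfsg.Agent.Lib.Helper97.NSP.Defs

set_option autoImplicit false

namespace Cfsg.Agent.Lib.Helper97.NSP

open QuadraticMap Module
open Cfsg.Agent.Lib.Helper49 Cfsg.Agent.Lib.Helper48

variable {F V : Type*} [Field F] [AddCommGroup V] [Module F V] {Q : QuadraticForm F V}

theorem fix_iff_perp (hQ : (polarBilin Q).Nondegenerate) (h : OG Q) (c : V) :
    h.1 c = c ↔ ∀ w, polar Q c (h.1 w - w) = 0 := by
  constructor
  · intro hc w
    rw [polar_sub_right]
    nth_rewrite 1 [← hc]
    rw [OG_polar, sub_self]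
  · intro hw
    by_contra hne
    have hne' : h.1 c - c ≠ 0 := sub_ne_zero.2 hne
    obtain ⟨y, hy⟩ := exists_polar_ne_zero Q hQ hne'
    apply hy
    obtain ⟨w, rfl⟩ := h.1.surjective y
    have := hw w
    rw [polar_sub_right] at this
    rw [polar_sub_left, OG_polar]
    linear_combination -this

theorem pow_apply_of_fixed (h : OG Q) (w : V) (hx : h.1 (h.1 w - w) = h.1 w - w) (i : ℕ) :
    (h ^ i).1 w = w + (i : F) • (h.1 w - w) := by
  induction i with
  | zero => simp
  | succ i ih =>
    have : (h ^ (i + 1)).1 w = h.1 ((h ^ i).1 w) := by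
      rw [pow_succ']; rfl
    rw [this, ih, map_add, map_smul, hx]
    push_cast
    module

theorem ker_inf_range {r : ℕ} (hr : (r : F) ≠ 0) (h : OG Q) (hh : h ^ r = 1) (w : V)
    (hx : h.1 (h.1 w - w) = h.1 w - w) : h.1 w - w = 0 := by
  have h1 := pow_apply_of_fixed h w hx r
  rw [hh] at h1
  have h2 : (r : F) • (h.1 w - w) = 0 := by
    have : (1 : OG Q).1 w = w := rfl
    rw [this] at h1
    have h3 := h1.symm
    rwa [add_eq_left] at h3
  exact (smul_eq_zero.1 h2).resolve_left hr

end Cfsg.Agent.Lib.Helper97.NSP
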