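import Cfsg.Agent.Lib.Helper97.NSP.R12

set_option autoImplicit false

namespace Cfsg.Agent.Lib.Helper97.NSP

open QuadraticMap Module
open Cfsg.Agent.Lib.Helper49 Cfsg.Agent.Lib.Helper48

variable {F V : Type*} [Field F] [AddCommGroup V] [Module F V] {Q : QuadraticForm F V}

/-- a fixed vector not orthogonal to a given nonzero fixed vector (averaging) -/
theorem exists_fixed_polar_ne (hQ : (polarBilin Q).Nondegenerate) {r : ℕ}
    (hr : (r : F) ≠ 0) (h : OG Q) (hh : h ^ r = 1) (u : V) (hu : h.1 u = u) (hu0 : u ≠ 0) :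
    ∃ y, h.1 y = y ∧ polar Q u y ≠ 0 := by
  obtain ⟨z, hz⟩ := exists_polar_ne_zero Q hQ hu0
  have hpow : ∀ i : ℕ, (h ^ i).1 u = u := by
    intro i
    induction i with
    | zero => rfl
    | succ i ih =>
      have : (h ^ (i + 1)).1 u = h.1 ((h ^ i).1 u) := by rw [pow_succ']; rfl
      rw [this, ih, hu]
  refine ⟨∑ i ∈ Finset.range r, (h ^ i).1 z, ?_, ?_⟩
  · rw [map_sum]
    have e : ∀ i, h.1 ((h ^ i).1 z) = (h ^ (i + 1)).1 z := by
      intro i; rw [pow_succ']; rfl
    simp only [e]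
    have h1 := Finset.sum_range_succ (fun i => (h ^ i).1 z) r
    have h2 := Finset.sum_range_succ' (fun i => (h ^ i).1 z) r
    rw [h1] at h2
    simp only [hh, pow_zero] at h2
    exact (add_right_cancel h2).symm
  · have e : polar Q u (∑ i ∈ Finset.range r, (h ^ i).1 z) = (r : F) * polar Q u z := by
      have : polar Q u (∑ i ∈ Finset.range r, (h ^ i).1 z) =
          ∑ i ∈ Finset.range r, polar Q u ((h ^ i).1 z) := by
        exact map_sum (polarBilin Q u) (fun i => (h ^ i).1 z) (Finset.range r)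
      rw [this]
      have e2 : ∀ i ∈ Finset.range r, polar Q u ((h ^ i).1 z) = polar Q u z := by
        intro i _
        nth_rewrite 1 [← hpow i]
        rw [OG_polar]
      rw [Finset.sum_congr rfl e2]
      simp
    rw [e]
    exact mul_ne_zero hr hz

theorem witt_step [Fintype F] [FiniteDimensional F V] (hQ : (polarBilin Q).Nondegenerate) {r : ℕ}
    (hr : (r : F) ≠ 0) (h : OG Q) (hh : h ^ r = 1) (u u' : V) (hu : h.1 u = u) (hu' : h.1 u' = u')
    (hQu : Q u ≠ 0) (hQ' : Q u = Q u') :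
    ∃ k : OG Q, (∀ w, k.1 (h.1 w - w) = h.1 w - w) ∧ k.1 u = u' := by
  have hu0 : u ≠ 0 := by rintro rfl; simp at hQu
  have hu0' : u' ≠ 0 := by rintro rfl; rw [hQ'] at hQu; simp at hQu
  obtain ⟨y, hy, huy⟩ := exists_fixed_polar_ne hQ hr h hh u hu hu0
  let ψ : V →ₗ[F] V := LinearMap.id +
    (LinearMap.toSpanSingleton F V (u' - u)).comp ((polar Q u y)⁻¹ • polarBilin Q y)
  have hψa : ∀ v, ψ v = v + ((polar Q u y)⁻¹ * polar Q y v) • (u' - u) := by
    intro v
    simp [ψ, LinearMap.toSpanSingleton_apply]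
  have hψ : ∀ (w : V) (a : F), ψ ((h.1 w - w) + a • u) = (h.1 w - w) + a • u' := by
    intro w a
    rw [hψa, polar_add_right, (fix_iff_perp hQ h y).1 hy w, polar_smul_right, polar_comm Q y u,
      zero_add, smul_eq_mul]
    have : (polar Q u y)⁻¹ * (a * polar Q u y) = a := by field_simp
    rw [this]
    module
  let X : Submodule F V := LinearMap.range (dOG Q h) ⊔ Submodule.span F {u}
  have hX : ∀ x ∈ X, ∃ (w : V) (a : F), x = (h.1 w - w) + a • u := by
    intro x hx
    obtain ⟨m, hm, s, hs, rfl⟩ := Submodule.mem_sup.1 hx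
    obtain ⟨w, rfl⟩ := hm
    obtain ⟨a, rfl⟩ := Submodule.mem_span_singleton.1 hs
    exact ⟨w, a, rfl⟩
  have hmX : ∀ w, h.1 w - w ∈ X := fun w =>
    Submodule.mem_sup_left ⟨w, rfl⟩
  have huX : u ∈ X := Submodule.mem_sup_right (Submodule.mem_span_singleton_self u)
  have hinj : Function.Injective (ψ.domRestrict X) := by
    rw [← LinearMap.ker_eq_bot, LinearMap.ker_eq_bot']
    rintro ⟨x, hx⟩ h0
    obtain ⟨w, a, rfl⟩ := hX x hx
    have h1 : (h.1 w - w) + a • u' = 0 := by
      rw [← hψ]; exact h0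
    have h2 : h.1 w - w = -(a • u') := eq_neg_of_add_eq_zero_left h1
    have h3 : h.1 (h.1 w - w) = h.1 w - w := by
      rw [h2, map_neg, map_smul, hu']
    have h4 := ker_inf_range hr h hh w h3
    rw [h4, zero_add] at h1
    have h5 : a = 0 := (smul_eq_zero.1 h1).resolve_right hu0'
    apply Subtype.ext
    simp [h4, h5]
  let φ := LinearEquiv.ofInjective (ψ.domRestrict X) hinj
  have hφ : ∀ x : X, ((φ x : LinearMap.range (ψ.domRestrict X)) : V) = ψ x := fun x => rfl
  obtain ⟨k, hk⟩ := witt_OG Q hQ X _ φ (by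
    rintro ⟨x, hx⟩
    rw [hφ]
    obtain ⟨w, a, rfl⟩ := hX x hx
    rw [hψ, Q_add_eq, Q_add_eq, QuadraticMap.map_smul, QuadraticMap.map_smul, polar_smul_right,
      polar_smul_right, polar_comm Q _ u', polar_comm Q _ u, (fix_iff_perp hQ h u').1 hu' w,
      (fix_iff_perp hQ h u).1 hu w, hQ'])
  refine ⟨k, ?_, ?_⟩
  · intro w
    have := hk ⟨_, hmX w⟩
    rw [hφ] at this
    have e := hψ w 0
    simp only [zero_smul, add_zero] at e
    exact this.trans e
  · have := hk ⟨u, huX⟩
    rw [hφ] at this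
    have e := hψ 0 1
    simp only [map_zero, sub_zero, zero_add, one_smul] at e
    exact this.trans e

end Cfsg.Agent.Lib.Helper97.NSP
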