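import Cfsg.Agent.Lib.Helper97.NSP.R12

set_option autoImplicit false

namespace Cfsg.Agent.Lib.Helper97.NSP

open QuadraticMap Module
open Cfsg.Agent.Lib.Helper49 Cfsg.Agent.Lib.Helper48

variable {F V : Type*} [Field F] [AddCommGroup V] [Module F V] {Q : QuadraticForm F V}

theorem improve [FiniteDimensional F V] (hQ : (polarBilin Q).Nondegenerate) {r : ℕ}
    (hr : (r : F) ≠ 0) (h k : OG Q) (hh : h ^ r = 1) (hk : k ^ r = 1) (hk1 : k ≠ 1)
    (hfix : ∀ w, k.1 (h.1 w - w) = h.1 w - w) :
    (h * k) ^ r = 1 ∧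
      finrank F (LinearMap.ker (dOG Q (h * k))) < finrank F (LinearMap.ker (dOG Q h)) := by
  have hC : ∀ v, h.1 (k.1 v - v) = k.1 v - v := by
    intro v
    rw [fix_iff_perp hQ]
    intro w
    rw [polar_sub_left]
    nth_rewrite 1 [← hfix w]
    rw [OG_polar, sub_self]
  have hmul : ∀ (a b : OG Q) (v : V), (a * b).1 v = a.1 (b.1 v) := fun _ _ _ => rfl
  have hcomm : Commute h k := by
    apply Subtype.ext
    apply LinearEquiv.ext
    intro v
    rw [hmul, hmul]
    have e1 := hC v
    have e2 := hfix v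
    rw [map_sub] at e1 e2
    have e3 : h.1 (k.1 v) = k.1 v - v + h.1 v := by rw [← e1]; abel
    have e4 : k.1 (h.1 v) = h.1 v - v + k.1 v := by rw [← e2]; abel
    rw [e3, e4]; abel
  have hle : LinearMap.ker (dOG Q (h * k)) ≤ LinearMap.ker (dOG Q h) := by
    intro v hv
    rw [mem_ker_dOG] at hv ⊢
    rw [hmul] at hv
    have e1 := hC v
    -- `h v - v = -(k v - v)`
    have e2 : h.1 v - v = -(k.1 v - v) := by
      have e3 := e1
      rw [map_sub, hv] at e3
      -- e3 : v - h v = k v - v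
      rw [← e3]; abel
    have e4 : h.1 (h.1 v - v) = h.1 v - v := by
      rw [e2, map_neg, e1]
    exact sub_eq_zero.1 (ker_inf_range hr h hh v e4)
  refine ⟨by rw [hcomm.mul_pow, hh, hk, one_mul], ?_⟩
  by_contra hnot
  push Not at hnot
  have heq := Submodule.eq_of_le_of_finrank_le hle hnot
  apply hk1
  apply Subtype.ext
  apply LinearEquiv.ext
  intro v
  have hkC : ∀ c, h.1 c = c → k.1 c = c := by
    intro c hc
    have h1 : c ∈ LinearMap.ker (dOG Q (h * k)) := by
      rw [heq, mem_ker_dOG]; exact hc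
    rw [mem_ker_dOG, hmul] at h1
    apply h.1.injective
    rw [h1, hc]
  have := ker_inf_range hr k hk v (hkC _ (hC v))
  exact sub_eq_zero.1 this

end Cfsg.Agent.Lib.Helper97.NSP
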