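import Cfsg.Agent.Lib.Helper97.NSP.R12

set_option autoImplicit false

namespace Cfsg.Agent.Lib.Helper97.NSP

open QuadraticMap Module
open Cfsg.Agent.Lib.Helper49 Cfsg.Agent.Lib.Helper48

variable {F V : Type*} [Field F] [AddCommGroup V] [Module F V] {Q : QuadraticForm F V}

/-- the action of the isometry group on the vectors of norm one -/
def actS (Q : QuadraticForm F V) : MulAction (OG Q) {v : V // Q v = 1} where
  smul g v := ⟨g.1 v.1, by rw [OG_apply]; exact v.2⟩
  one_smul _ := Subtype.ext rfl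
  mul_smul _ _ _ := Subtype.ext rfl

/-- the pointwise stabiliser of `range (h - 1)` -/
def fixRange (h : OG Q) : Subgroup (OG Q) where
  carrier := {k | ∀ w, k.1 (h.1 w - w) = h.1 w - w}
  mul_mem' {a b} ha hb := by
    intro w
    change a.1 (b.1 _) = _
    rw [hb w, ha w]
  one_mem' := fun _ => rfl
  inv_mem' {a} ha := by
    intro w
    have h1 : (a⁻¹).1 (a.1 (h.1 w - w)) = h.1 w - w := by
      have : (a⁻¹ * a).1 (h.1 w - w) = h.1 w - w := by rw [inv_mul_cancel]; rfl
      exact this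
    rw [ha w] at h1
    exact h1

theorem count [Fintype F] [FiniteDimensional F V] (hQ : (polarBilin Q).Nondegenerate) {r : ℕ}
    [Fact r.Prime] (hcard : r ∣ Nat.card {v : V // Q v = 1}) (h : OG Q) (hh : h ^ r = 1)
    (hW : ∀ u u' : V, h.1 u = u → h.1 u' = u' → Q u = 1 → Q u' = 1 →
      ∃ k : OG Q, (∀ w, k.1 (h.1 w - w) = h.1 w - w) ∧ k.1 u = u')
    (u : V) (hQu : Q u = 1) (hu : h.1 u = u) :
    ∃ k : OG Q, k ^ r = 1 ∧ k ≠ 1 ∧ ∀ w, k.1 (h.1 w - w) = h.1 w - w := by
  letI := actS Q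
  haveI : Finite V := Module.finite_of_finite F
  haveI : Finite (V ≃ₗ[F] V) :=
    Finite.of_injective (fun g : V ≃ₗ[F] V => (g : V → V)) DFunLike.coe_injective
  have hsm : ∀ (g : OG Q) (s : {v : V // Q v = 1}), ((g • s : {v : V // Q v = 1}) : V) = g.1 s.1 :=
    fun _ _ => rfl
  -- the cyclic group generated by `h` is an `r`-group
  have hP : IsPGroup r (Subgroup.zpowers h) := by
    rintro ⟨g, hg⟩
    obtain ⟨n, rfl⟩ := Subgroup.mem_zpowers_iff.1 hg
    refine ⟨1, Subtype.ext ?_⟩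
    simp only [pow_one, Subgroup.coe_pow, Subgroup.coe_one]
    rw [← zpow_natCast, ← zpow_mul, mul_comm, zpow_mul, zpow_natCast, hh, one_zpow]
  have h1 := hP.card_modEq_card_fixedPoints {v : V // Q v = 1}
  have h2 : r ∣ Nat.card (MulAction.fixedPoints (Subgroup.zpowers h) {v : V // Q v = 1}) :=
    (Nat.modEq_zero_iff_dvd.1 (h1.symm.trans (Nat.modEq_zero_iff_dvd.2 hcard)))
  -- fixed points = orbit of `u` under `fixRange h`
  have h3 : MulAction.fixedPoints (Subgroup.zpowers h) {v : V // Q v = 1} =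
      MulAction.orbit (fixRange h) (⟨u, hQu⟩ : {v : V // Q v = 1}) := by
    ext s
    constructor
    · intro hs
      have hs' : h.1 s.1 = s.1 := by
        have := hs ⟨h, Subgroup.mem_zpowers h⟩
        exact congrArg Subtype.val this
      obtain ⟨k, hk1, hk2⟩ := hW u s.1 hu hs' hQu s.2
      exact ⟨⟨k, hk1⟩, Subtype.ext hk2⟩
    · rintro ⟨⟨k, hk⟩, rfl⟩
      have hfix : h.1 (k.1 u) = k.1 u := by
        rw [fix_iff_perp hQ]
        intro w
        rw [← hk w, OG_polar]
        exact (fix_iff_perp hQ h u).1 hu w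
      rintro ⟨g, hg⟩
      obtain ⟨n, rfl⟩ := Subgroup.mem_zpowers_iff.1 hg
      have hstab : h ∈ MulAction.stabilizer (OG Q) ((⟨k, hk⟩ : fixRange h) •
          (⟨u, hQu⟩ : {v : V // Q v = 1})) := by
        rw [MulAction.mem_stabilizer_iff]
        exact Subtype.ext hfix
      exact MulAction.mem_stabilizer_iff.1 (Subgroup.zpow_mem _ hstab n)
  rw [h3, Nat.card_coe_set_eq, ← MulAction.index_stabilizer] at h2
  have h4 : r ∣ Nat.card (fixRange h) := h2.trans (Subgroup.index_dvd_card _)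
  obtain ⟨k, hk⟩ := exists_prime_orderOf_dvd_card' r h4
  refine ⟨k.1, ?_, ?_, k.2⟩
  · have := pow_orderOf_eq_one k
    rw [hk] at this
    exact congrArg Subtype.val this
  · intro h1
    have : k = 1 := Subtype.ext h1
    rw [this, orderOf_one] at hk
    exact (Fact.out : r.Prime).one_lt.ne hk

end Cfsg.Agent.Lib.Helper97.NSP
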