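import Cfsg.Agent.Lib.Helper97.NSP.R3
import Cfsg.Agent.Lib.Helper97.NSP.R4
import Cfsg.Agent.Lib.Helper97.NSP.R5

set_option autoImplicit false

namespace Cfsg.Agent.Lib.Helper97.NSP

open QuadraticMap Module
open Cfsg.Agent.Lib.Helper49 Cfsg.Agent.Lib.Helper48

variable {F V : Type*} [Field F] [AddCommGroup V] [Module F V] {Q : QuadraticForm F V}

theorem key [Fintype F] [FiniteDimensional F V] (hQ : (polarBilin Q).Nondegenerate) {r : ℕ}
    [Fact r.Prime] (hr : (r : F) ≠ 0) (hcard : r ∣ Nat.card {v : V // Q v = 1}) :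
    ∃ h : OG Q, h ^ r = 1 ∧ ∀ v, Q v = 1 → h.1 v ≠ v := by
  have main : ∀ n : ℕ, ∀ h : OG Q, h ^ r = 1 → finrank F (LinearMap.ker (dOG Q h)) = n →
      ∃ h : OG Q, h ^ r = 1 ∧ ∀ v, Q v = 1 → h.1 v ≠ v := by
    intro n
    induction n using Nat.strong_induction_on with
    | _ n ih =>
      intro h hh hn
      by_cases hfix : ∃ u, Q u = 1 ∧ h.1 u = u
      · obtain ⟨u, hQu, hu⟩ := hfix
        obtain ⟨k, hk, hk1, hkf⟩ := count hQ hcard h hh (fun u u' hu hu' h1 h1' =>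
          witt_step hQ hr h hh u u' hu hu' (by rw [h1]; exact one_ne_zero) (by rw [h1, h1']))
          u hQu hu
        obtain ⟨h1, h2⟩ := improve hQ hr h k hh hk hk1 hkf
        exact ih _ (hn ▸ h2) (h * k) h1 rfl
      · push Not at hfix
        exact ⟨h, hh, hfix⟩
  exact main _ 1 (one_pow r) rfl

end Cfsg.Agent.Lib.Helper97.NSP
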