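import Cfsg.Agent.Lib.Helper97.NSP.R12

set_option autoImplicit false

namespace Cfsg.Agent.Lib.Helper97.NSP

open QuadraticMap Module
open Cfsg.Agent.Lib.Helper49 Cfsg.Agent.Lib.Helper48

variable {F V : Type*} [Field F] [AddCommGroup V] [Module F V] {Q : QuadraticForm F V}

/-- in characteristic two `c² = 1` forces `c = 1` -/
theorem eq_one_of_sq (h2 : (2 : F) = 0) {c : F} (hc : c ^ 2 = 1) : c = 1 := by
  have : (c - 1) ^ 2 = 0 := by linear_combination hc - c * h2 + h2
  exact sub_eq_zero.1 (pow_eq_zero_iff (two_ne_zero) |>.1 this)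

/-- an isometry mapping a nonsingular vector to a multiple fixes it (characteristic two) -/
theorem fix_of_smul (h2 : (2 : F) = 0) (g : OG Q) {v : V} (hv : Q v ≠ 0) {c : F}
    (hc : g.1 v = c • v) : g.1 v = v := by
  have h1 := OG_apply Q g v
  rw [hc, QuadraticMap.map_smul] at h1
  have h3 : c ^ 2 = 1 := by
    have : (c * c - 1) * Q v = 0 := by
      simp only [smul_eq_mul] at h1
      linear_combination h1
    have := (mul_eq_zero.1 this).resolve_right hv
    linear_combination this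
  rw [hc, eq_one_of_sq h2 h3, one_smul]

theorem sq_eq_one_of_scalar (h2 : (2 : F) = 0) (hQ : (polarBilin Q).Nondegenerate)
    (hV : ∃ x : V, x ≠ 0) (g : OG Q) (hz : ∃ z : F, ∀ v, (g ^ 2).1 v = z • v) :
    ∀ v, g.1 (g.1 v) = v := by
  obtain ⟨z, hz⟩ := hz
  obtain ⟨x, hx⟩ := hV
  obtain ⟨a, -, ha, -⟩ := exists_nonsingular_pair Q h2 hQ hx
  have h1 := fix_of_smul h2 (g ^ 2) ha (hz a)
  have h3 : z = 1 := by
    have h4 : (z - 1) • a = 0 := by
      rw [sub_smul, one_smul, ← hz a, h1, sub_self]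
    have ha0 : a ≠ 0 := by rintro rfl; simp at ha
    exact sub_eq_zero.1 ((smul_eq_zero.1 h4).resolve_right ha0)
  intro v
  have := hz v
  rw [h3, one_smul, pow_two] at this
  exact this

theorem elus_two_of_noLagr [Fintype F] [FiniteDimensional F V] (h2 : (2 : F) = 0)
    (hQ : (polarBilin Q).Nondegenerate) (hV : ∃ x : V, x ≠ 0) (hno : ∀ L, ¬ IsLagr Q L)
    (hinv : ∀ g : OG Q, (∀ v, g.1 (g.1 v) = v) → (∀ v, g.1 v = v → Q v = 0) →
      IsLagr Q (LinearMap.ker (dOG Q g)) ∧
        LinearMap.ker (dOG Q g) = LinearMap.range (dOG Q g)) : Elus Q 2 := by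
  intro g _ hz _
  by_contra hcon
  push Not at hcon
  have hg := sq_eq_one_of_scalar h2 hQ hV g hz
  refine hno _ (hinv g hg ?_).1
  intro v hv
  by_contra hQv
  exact hcon v hQv 1 (by rw [hv, one_smul])

theorem elus_two_of_odd [Fintype F] [FiniteDimensional F V] (h2 : (2 : F) = 0)
    (hQ : (polarBilin Q).Nondegenerate) {d : ℕ} (hd : finrank F V = 2 * d) (hodd : Odd d)
    (hinv : ∀ g : OG Q, (∀ v, g.1 (g.1 v) = v) → (∀ v, g.1 v = v → Q v = 0) →
      IsLagr Q (LinearMap.ker (dOG Q g)) ∧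
        LinearMap.ker (dOG Q g) = LinearMap.range (dOG Q g)) : Elus Q 2 := by
  have hV : ∃ x : V, x ≠ 0 := by
    have : 0 < finrank F V := by
      rw [hd]; obtain ⟨m, rfl⟩ := hodd; omega
    have := Module.nontrivial_of_finrank_pos this
    exact exists_ne 0
  intro g _ hz _
  by_contra hcon
  push Not at hcon
  have hg := sq_eq_one_of_scalar h2 hQ hV g hz
  obtain ⟨hL, hKM⟩ := hinv g hg (by
    intro v hv
    by_contra hQv
    exact hcon v hQv 1 (by rw [hv, one_smul]))
  have hfin := hL.finrank_eq hQ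
  let C : LinearMap.BilinForm F V := (polarBilin Q).compl₂ (dOG Q g)
  have hCa : ∀ v w, C v w = polar Q v (g.1 w - w) := fun v w => rfl
  have hAlt : C.IsAlt := by
    intro v
    rw [hCa]
    have h1 : Q (g.1 v - v) = 0 := by
      apply hL.1
      rw [hKM]
      exact ⟨v, rfl⟩
    have h3 : g.1 v - v = g.1 v + -v := sub_eq_add_neg _ _
    rw [h3, Q_add_eq, QuadraticMap.map_neg, OG_apply, polar_neg_right] at h1
    rw [polar_sub_right, polar_self, polar_comm]
    simp only [nsmul_eq_mul, Nat.cast_ofNat]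
    linear_combination -h1
  have hker : LinearMap.ker C = LinearMap.ker (dOG Q g) := by
    ext v
    rw [mem_ker_dOG, fix_iff_perp hQ, LinearMap.mem_ker]
    constructor
    · intro h w
      rw [← hCa, h]; rfl
    · intro h
      ext w
      rw [hCa, h]; rfl
  have hev := even_finrank_add_finrank_ker_of_isAlt C hAlt
  rw [hker, hd] at hev
  have : finrank F (LinearMap.ker (dOG Q g)) = d := by omega
  rw [this] at hev
  have h5 : Even d := by
    rcases hev with ⟨m, hm⟩
    exact ⟨m - d, by omega⟩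
  exact (Nat.not_even_iff_odd.2 hodd) h5

end Cfsg.Agent.Lib.Helper97.NSP
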