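import Cfsg.Agent.Lib.Helper97.NSP.T12

set_option autoImplicit false

namespace Cfsg.Agent.Lib.Helper97.NSP

open QuadraticMap Module
open Cfsg.Agent.Lib.Helper49 Cfsg.Agent.Lib.Helper48

variable {F V : Type*} [Field F] [AddCommGroup V] [Module F V] {Q : QuadraticForm F V}

/-- rescaling a nonsingular vector to norm one (characteristic two, finite field) -/
theorem exists_smul_norm_one [Fintype F] (h2 : (2 : F) = 0) {v : V} (hv : Q v ≠ 0) :
    ∃ s : F, s ≠ 0 ∧ Q (s • v) = 1 := by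
  obtain ⟨s, hs⟩ := isSquare_of_two_eq_zero h2 (Q v)⁻¹
  refine ⟨s, ?_, ?_⟩
  · rintro rfl
    simp only [mul_zero] at hs
    exact inv_ne_zero hv hs
  · rw [QuadraticMap.map_smul, ← hs, smul_eq_mul, inv_mul_cancel₀ hv]

theorem not_elus_odd [Fintype F] [FiniteDimensional F V] (h2 : (2 : F) = 0)
    (hQ : (polarBilin Q).Nondegenerate) (hgen : ReflGen Q) (hV : ∃ x : V, x ≠ 0) {r : ℕ}
    (hodd : Odd r) (hkey : ∃ h : OG Q, h ^ r = 1 ∧ ∀ v, Q v = 1 → h.1 v ≠ v) : ¬ Elus Q r := by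
  intro hE
  obtain ⟨h, hh, hfix⟩ := hkey
  have hidx := index_commutator_gen h2 hQ hgen hV
  have hmem : h ∈ commutator (OG Q) := by
    obtain ⟨m, rfl⟩ := hodd
    have h1 : h * (h ^ 2) ^ m = 1 := by
      rw [← pow_mul, ← pow_succ', hh]
    have h3 : h = ((h ^ 2) ^ m)⁻¹ := eq_inv_of_mul_eq_one_left h1
    rw [h3]
    exact Subgroup.inv_mem _ (Subgroup.pow_mem _ (Subgroup.sq_mem_of_index_two hidx h) m)
  have hno : ∀ v, Q v ≠ 0 → ∀ c : F, h.1 v ≠ c • v := by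
    intro v hv c hc
    have h1 := fix_of_smul h2 h hv hc
    obtain ⟨s, -, hs⟩ := exists_smul_norm_one h2 hv
    exact hfix _ hs (by rw [map_smul, h1])
  obtain ⟨x, hx⟩ := hV
  obtain ⟨a, -, ha, -⟩ := exists_nonsingular_pair Q h2 hQ hx
  obtain ⟨v, hv, c, hc⟩ := hE h hmem ⟨1, fun v => by rw [hh, one_smul]; rfl⟩
    (fun z => ⟨a, hno a ha z⟩)
  exact hno v hv c hc

end Cfsg.Agent.Lib.Helper97.NSP
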