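import Cfsg.Agent.Lib.Helper97.NSP.T12

set_option autoImplicit false

namespace Cfsg.Agent.Lib.Helper97.NSP

open QuadraticMap Module
open Cfsg.Agent.Lib.Helper49 Cfsg.Agent.Lib.Helper48

/-- the shift by `m` on `Fin (m + m)` -/
def shiftσ (m : ℕ) (i : Fin (m + m)) : Fin (m + m) :=
  if h : i.val < m then ⟨i.val + m, by omega⟩ else ⟨i.val - m, by omega⟩

theorem shiftσ_shiftσ (m : ℕ) (i : Fin (m + m)) : shiftσ m (shiftσ m i) = i := by
  apply Fin.ext
  unfold shiftσ
  by_cases h : i.val < m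
  · simp [h]
  · have h1 : i.val - m < m := by omega
    simp only [h, dite_false, h1, dite_true]
    omega

theorem shiftσ_ne (m : ℕ) (hm : 0 < m) (i : Fin (m + m)) : shiftσ m i ≠ i := by
  intro h0
  have := congrArg Fin.val h0
  unfold shiftσ at this
  by_cases h : i.val < m
  · simp only [h, dite_true] at this; omega
  · simp only [h, dite_false] at this; omega

variable {F : Type*} [Field F]

/-- the unipotent map `(x, y) ↦ (x + y ∘ σ, y)` -/
def uLin (m : ℕ) : (Fin (m + m) ⊕ Fin (m + m) → F) →ₗ[F] (Fin (m + m) ⊕ Fin (m + m) → F) where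
  toFun v := Sum.elim (fun i => v (Sum.inl i) + v (Sum.inr (shiftσ m i))) (fun i => v (Sum.inr i))
  map_add' u v := by
    ext (i | i)
    · simp only [Sum.elim_inl, Pi.add_apply]; ring
    · simp
  map_smul' c v := by
    ext (i | i)
    · simp only [Sum.elim_inl, Pi.smul_apply, smul_eq_mul, RingHom.id_apply]; ring
    · simp

theorem uLin_inl (m : ℕ) (v : Fin (m + m) ⊕ Fin (m + m) → F) (i : Fin (m + m)) :
    uLin m v (Sum.inl i) = v (Sum.inl i) + v (Sum.inr (shiftσ m i)) := rfl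

theorem uLin_inr (m : ℕ) (v : Fin (m + m) ⊕ Fin (m + m) → F) (i : Fin (m + m)) :
    uLin m v (Sum.inr i) = v (Sum.inr i) := rfl

theorem uLin_invol (h2 : (2 : F) = 0) (m : ℕ) : Function.Involutive (uLin (F := F) m) := by
  intro v
  ext (i | i)
  · rw [uLin_inl, uLin_inl, uLin_inr]
    linear_combination v (Sum.inr (shiftσ m i)) * h2
  · rw [uLin_inr, uLin_inr]

theorem Q_uLin (h2 : (2 : F) = 0) (m : ℕ) (hm : 0 < m) (v : Fin (m + m) ⊕ Fin (m + m) → F) :
    plusQF (m + m) F (uLin m v) = plusQF (m + m) F v := by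
  rw [plusQF_coe]
  unfold Cfsg.quadFormPlus
  simp only [uLin_inl, uLin_inr, add_mul, Finset.sum_add_distrib]
  have : ∑ i : Fin (m + m), v (Sum.inr (shiftσ m i)) * v (Sum.inr i) = 0 := by
    apply Finset.sum_involution (fun i _ => shiftσ m i)
    · intro i _
      rw [shiftσ_shiftσ]
      linear_combination v (Sum.inr (shiftσ m i)) * v (Sum.inr i) * h2
    · intro i _ _
      exact shiftσ_ne m hm i
    · intro i _
      exact Finset.mem_univ _
    · intro i _
      exact shiftσ_shiftσ m i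
  rw [this, add_zero]

/-- the involution as an isometry -/
noncomputable def uOG (h2 : (2 : F) = 0) (m : ℕ) (hm : 0 < m) : OG (plusQF (m + m) F) :=
  ⟨LinearEquiv.ofInvolutive (uLin m) (uLin_invol h2 m), fun v => Q_uLin h2 m hm v⟩

theorem uOG_apply (h2 : (2 : F) = 0) (m : ℕ) (hm : 0 < m) (v : Fin (m + m) ⊕ Fin (m + m) → F) :
    (uOG h2 m hm).1 v = uLin m v := rfl

theorem uOG_fix_iff (h2 : (2 : F) = 0) (m : ℕ) (hm : 0 < m) (v : Fin (m + m) ⊕ Fin (m + m) → F) :
    (uOG h2 m hm).1 v = v ↔ ∀ i, v (Sum.inr i) = 0 := by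
  rw [uOG_apply]
  constructor
  · intro h i
    have := congrFun h (Sum.inl (shiftσ m i))
    rw [uLin_inl, shiftσ_shiftσ] at this
    simpa using this
  · intro h
    ext (i | i)
    · rw [uLin_inl, h, add_zero]
    · rw [uLin_inr]

theorem not_elus_two_plus_aux [Fintype F] (h2 : (2 : F) = 0) (m : ℕ) (hm : 4 ≤ m + m) :
    ¬ Elus (plusQF (m + m) F) 2 := by
  have hm0 : 0 < m := by omega
  have hQ := plusQF_nondegenerate (m + m) F
  have hfr : Module.finrank F (Fin (m + m) ⊕ Fin (m + m) → F) = 2 * (m + m) := by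
    rw [Module.finrank_fintype_fun_eq_card, Fintype.card_sum, Fintype.card_fin]; ring
  have hgen : ReflGen (plusQF (m + m) F) := reflGen_of_ne hQ (Or.inr (by rw [hfr]; omega))
  intro hE
  set g := uOG (F := F) h2 m hm0 with hg
  have hker : LinearMap.ker (dOG _ g) = LinearMap.range (dOG _ g) := by
    ext v
    rw [mem_ker_dOG, uOG_fix_iff]
    constructor
    · intro h
      refine ⟨Sum.elim (fun _ => 0) (fun i => v (Sum.inl (shiftσ m i))), ?_⟩
      rw [dOG_apply, uOG_apply]
      ext (i | i)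
      · simp [uLin_inl, shiftσ_shiftσ]
      · simp [uLin_inr, h]
    · rintro ⟨w, rfl⟩ i
      rw [dOG_apply, uOG_apply]
      simp [uLin_inr]
  have hmem : g ∈ commutator (OG (plusQF (m + m) F)) := by
    rw [mem_commutator_iff_even_rank_gen h2 hQ hgen]
    have d1 := LinearMap.finrank_range_add_finrank_ker (dOG _ g)
    rw [hker, hfr] at d1
    exact ⟨m, by omega⟩
  obtain ⟨v, hv, c, hc⟩ := hE g hmem ⟨1, fun v => by
      rw [one_smul, pow_two]
      exact uLin_invol h2 m v⟩ (by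
    intro z
    let i0 : Fin (m + m) := ⟨0, by omega⟩
    refine ⟨Pi.single (Sum.inr i0) 1, fun h => ?_⟩
    have := congrFun h (Sum.inl (shiftσ m i0))
    rw [uOG_apply, uLin_inl, shiftσ_shiftσ] at this
    simp at this)
  have h1 := fix_of_smul h2 g hv hc
  rw [uOG_fix_iff] at h1
  apply hv
  rw [plusQF_coe]
  unfold Cfsg.quadFormPlus
  simp [h1]

theorem not_elus_two_plus [Fintype F] (h2 : (2 : F) = 0) {d : ℕ} (hd : 4 ≤ d)
    (heven : Even d) : ¬ Elus (plusQF d F) 2 := by
  obtain ⟨m, rfl⟩ := heven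
  exact not_elus_two_plus_aux h2 m hd

end Cfsg.Agent.Lib.Helper97.NSP
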